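import Cfsg.Agent.H858.BR.SpDefs
import Cfsg.Agent.S0765

/-!
# HUB BR: the root groups of `Sp_{2m}(q)`, any `q` (helper178)

`rho_xr`, `oneP`, `polyDeg`, `rt_Rt` for `rho m F₀ K` (H858/BR/SpDefs).
-/

set_option autoImplicit false

namespace Cfsg.Agent.H178.BR.Sp

open Cfsg Cfsg.Agent.H883.BR Cfsg.Agent.H858.BR Cfsg.Agent.ClassicalGeometry.SympBasic

section root

variable {m : ℕ} {F₀ : Type*} [Field F₀] {K : Type*} [Field K] [Algebra F₀ K]

theorem rt_sq (v : Fin m ⊕ Fin m → F₀) : rt K v * rt K v = 0 := by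
  refine LinearMap.ext fun y => ?_
  change rt K v (rt K v y) = 0
  rw [rt_apply v y, map_smul, rt_apply v (vk K v), sympForm_self, zero_smul, smul_zero]

variable {F : Subfield K} (hF : ∀ t : K, t ∈ F ↔ ∃ t₀ : F₀, algebraMap F₀ K t₀ = t)

/-- the preimage in `F₀` -/
noncomputable def pre (t : F) : F₀ := Classical.choose ((hF t).1 t.2)

theorem map_pre (t : F) : algebraMap F₀ K (pre hF t) = t := Classical.choose_spec ((hF t).1 t.2)

theorem pre_map (t₀ : F₀) : pre hF ⟨algebraMap F₀ K t₀, (hF _).2 ⟨t₀, rfl⟩⟩ = t₀ :=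
  (algebraMap F₀ K).injective (map_pre hF _)

/-- the root groups -/
noncomputable def xr (v : Fin m ⊕ Fin m → F₀) (t : F) : Matrix.symplecticGroup (Fin m) F₀ := transv v (pre hF t)

theorem rho_xr (v : Fin m ⊕ Fin m → F₀) (t : F) : rho m F₀ K (xr hF v t) = 1 + (t : K) • rt K v := by
  unfold xr
  rw [rho_transv, map_pre]

/-- **the root groups generate** -/
theorem oneP : OneP F (fun v : Fin m ⊕ Fin m → F₀ => xr hF v) where
  add v s t := by
    apply rho_inj (K := K)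
    rw [map_mul, rho_xr, rho_xr, rho_xr, mul_add, add_mul, add_mul, mul_one, one_mul, mul_one, smul_mul_smul_comm, rt_sq,
      smul_zero, add_zero, add_assoc, ← add_smul]
    rfl
  gen := by
    rw [eq_top_iff, ← Cfsg.Agent.S0765.result (F := F₀) m, Subgroup.closure_le]
    rintro A ⟨w, c, hA⟩
    refine Subgroup.subset_closure ⟨w, ⟨algebraMap F₀ K c, (hF _).2 ⟨c, rfl⟩⟩, ?_⟩
    apply Subtype.ext
    change ((transv w (pre hF ⟨algebraMap F₀ K c, (hF _).2 ⟨c, rfl⟩⟩) : Matrix.symplecticGroup (Fin m) F₀) :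
      Matrix (Fin m ⊕ Fin m) (Fin m ⊕ Fin m) F₀) = A
    rw [pre_map, coe_transv, hA]

theorem polyDeg : PolyDeg (rho m F₀ K) F (fun v : Fin m ⊕ Fin m → F₀ => xr hF v) 1 := by
  intro v
  refine ⟨fun j => if j = 0 then 1 else rt K v, fun t => ?_⟩
  rw [Finset.sum_range_succ, Finset.sum_range_one, pow_zero, one_smul, pow_one]
  beta_reduce
  rw [if_pos rfl, if_neg one_ne_zero, rho_xr]

include hF in
theorem rt_Rt (v : Fin m ⊕ Fin m → F₀) : Rt (rho m F₀ K) F ⊤ (rt K v) :=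
  ⟨rt_sq v, fun t ht => ⟨xr hF v ⟨t, ht⟩, Subgroup.mem_top _, rho_xr hF v _⟩⟩

/-- `1 + v ⊗ B(·, v)` -/
theorem rho_transv_one (v : Fin m ⊕ Fin m → F₀) : rho m F₀ K (transv v 1) = 1 + rt K v := by
  rw [rho_transv, map_one, one_smul]

end root

end Cfsg.Agent.H178.BR.Sp
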